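import Cfsg.Agent.Foote.Bridge
import Cfsg.Agent.UGT.EndJ1.Data

/-!
# Strongly closed 2-subgroups of the first Janko group (helper63)
-/

set_option autoImplicit false
set_option linter.style.haveILetI false

namespace Cfsg.Agent.FooteOdd.SporJOne

open Subgroup Cfsg Cfsg.Agent.TwoFusion.ClosedFam Cfsg.Agent.Foote

theorem cr : CR Spor.J1 := by
  obtain ⟨D⟩ := Cfsg.Agent.UGT.EndJ1.Data.exists_dat
  haveI := D.fin
  obtain ⟨S, hS⟩ := D.sylow
  have key : ∀ x : Spor.J1, TwoEl x → x = 1 ∨ ∃ g : Spor.J1, g * D.t * g⁻¹ = x := by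
    intro x hx
    obtain ⟨g, hg⟩ := hx.exists_conj_mem S
    have h1 : g * x * g⁻¹ ∈ D.E := by rw [← hS]; exact hg
    have h2 := D.sqE _ h1
    have h3 : x * x = 1 := by
      calc x * x = g⁻¹ * (g * x * g⁻¹ * (g * x * g⁻¹)) * g := by group
        _ = 1 := by rw [h2]; group
    by_cases hx1 : x = 1
    · exact Or.inl hx1
    · exact Or.inr (D.conj_t h3 hx1)
  intro 𝒜 h
  by_cases hne : Triv 𝒜
  · exact Or.inl hne
  right
  obtain ⟨x₀, hx₀, hx₀1⟩ : ∃ x ∈ 𝒜, x ≠ 1 := by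
    by_contra hcon
    push Not at hcon
    exact hne hcon
  obtain ⟨g, hg⟩ := (key x₀ (h.two x₀ hx₀)).resolve_left hx₀1
  have h1 : D.t ∈ 𝒜 := by
    rw [← hg] at hx₀
    exact (h.conj_mem_iff g).1 hx₀
  intro x hx
  rcases key x hx with rfl | ⟨k, rfl⟩
  · exact h.one_mem
  · exact h.conj_mem _ h1 k

/-- **S1252, the row `J₁`.** -/
theorem closedRow {G : Type*} [Group G] [Finite G] (h : Spor.IsoJ1 G) : ClosedTwo.ClosedRow G := by
  obtain ⟨e⟩ := h
  exact (cr.of_equiv e).closedRow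

end Cfsg.Agent.FooteOdd.SporJOne
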